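import Cfsg.Agent.H3.Mu.U43.Core
import Cfsg.Agent.H3.Mu.U43.L0
import Cfsg.Agent.H3.Mu.U43.L1
import Cfsg.Agent.H3.Mu.U43.L2
import Cfsg.Agent.H3.Mu.U43.P2
import Cfsg.Agent.H3.Mu.U43.P3

/-! The Schur multiplier. -/

set_option autoImplicit false
set_option maxRecDepth 100000

open Cfsg.Agent.L0

namespace Cfsg.Agent.H3.U43


theorem schur {G : Type*} [Group G] (hm : Model G 280 5 T Bf) :
    Finite G ∧ Nat.card G = 3265920 ∧ HasSchurMultiplier G (Multiplicative (ZMod 4 × ZMod 3 × ZMod 3)) := by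
  obtain ⟨A, x, h⟩ := core' hm
  haveI := h.fin
  have h2 := P2.pm h.base h.tab h.card
  have h3 := P3.pm h.base h.tab h.card
  have hr := pmult_rest h.card [] (by simp) (by decide +kernel) (by decide +kernel)
  exact ⟨h.fin, h.card, hasSchur_of (lower_three h.pres L0rep L1rep L2rep
    [(522, 5), (-21, 7), (-432, 9), (930, 11), (780, 15), (18, 16), (222, 17), (-429, 18), (408, 21), (174, 22), (390, 25), (-390, 26), (-390, 27), (-381, 28), (-624, 29), (-114, 31), (30, 32), (-21, 33), (-3, 34), (18, 35), (-9, 36), (20, 37), (372, 38), (3, 39)]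
    [(570, 5), (-24, 7), (-1, 8), (-471, 9), (1016, 11), (852, 15), (20, 16), (241, 17), (-468, 18), (446, 21), (190, 22), (426, 25), (-426, 26), (-426, 27), (-416, 28), (-682, 29), (-124, 31), (33, 32), (-22, 33), (-3, 34), (20, 35), (-10, 36), (22, 37), (405, 38), (3, 39)]
    [(1122, 5), (-50, 7), (-4, 8), (-928, 9), (2000, 11), (1678, 15), (40, 16), (472, 17), (-921, 18), (878, 21), (374, 22), (839, 25), (-839, 26), (-839, 27), (-820, 28), (-1343, 29), (-243, 31), (66, 32), (-42, 33), (-5, 34), (40, 35), (-20, 36), (44, 37), (796, 38), (6, 39)]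
    (by decide +kernel) (by decide +kernel) (by decide +kernel) (by decide +kernel))
    (upper_four_three_three h2 h3 hr)⟩

end Cfsg.Agent.H3.U43
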